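import Cfsg.Agent.H16.S22

/-! The point-block graph of an S(3,6,22). -/

set_option autoImplicit false

namespace Cfsg.Agent.H16

open Finset

section adj
variable {α : Type*} {B : Set (Finset α)}

theorem pbg_adj (v w : Option (α ⊕ B)) : (pointBlockGraph B).Adj v w ↔
    v ≠ w ∧ (pointBlockRel B v w ∨ pointBlockRel B w v) := SimpleGraph.fromRel_adj _ _ _

theorem pbg_nn : ¬ (pointBlockGraph B).Adj none none := (pointBlockGraph B).irrefl

theorem pbg_nl (a : α) : (pointBlockGraph B).Adj none (some (.inl a)) :=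
  (pbg_adj _ _).2 ⟨by simp, Or.inl trivial⟩

theorem pbg_ln (a : α) : (pointBlockGraph B).Adj (some (.inl a)) none := (pbg_nl a).symm

theorem pbg_nr (b : B) : ¬ (pointBlockGraph B).Adj none (some (.inr b)) := fun h =>
  ((pbg_adj _ _).1 h).2.elim (fun h => h) (fun h => h)

theorem pbg_rn (b : B) : ¬ (pointBlockGraph B).Adj (some (.inr b)) none := fun h =>
  pbg_nr b h.symm

theorem pbg_ll (a a' : α) : ¬ (pointBlockGraph B).Adj (some (.inl a)) (some (.inl a')) := fun h =>
  ((pbg_adj _ _).1 h).2.elim (fun h => h) (fun h => h)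

theorem pbg_lr (a : α) (b : B) :
    (pointBlockGraph B).Adj (some (.inl a)) (some (.inr b)) ↔ a ∈ (b : Finset α) :=
  (pbg_adj _ _).trans ⟨fun h => h.2.elim (fun h => h) (fun h => False.elim h),
    fun h => ⟨by simp, Or.inl h⟩⟩

theorem pbg_rl (a : α) (b : B) :
    (pointBlockGraph B).Adj (some (.inr b)) (some (.inl a)) ↔ a ∈ (b : Finset α) :=
  ((pointBlockGraph B).adj_comm _ _).trans (pbg_lr a b)

theorem pbg_rr {t k : ℕ} (hB : IsSteinerSystem t (k + 1) B) (b c : B) :
    (pointBlockGraph B).Adj (some (.inr b)) (some (.inr c)) ↔ Disjoint (b : Finset α) c := by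
  rw [← blockGraph_adj hB]
  have : (blockGraph B).Adj b c ↔ b ≠ c ∧ (Disjoint (b : Finset α) c ∨ Disjoint (c : Finset α) b) :=
    SimpleGraph.fromRel_adj _ _ _
  rw [this, pbg_adj]
  exact and_congr (by simp) Iff.rfl

end adj

theorem card_filter_option_sum {α β : Type*} [Fintype α] [Fintype β] (P : Option (α ⊕ β) → Prop)
    [DecidablePred P] : (univ.filter P).card = (if P none then 1 else 0) +
      (univ.filter (fun a => P (some (.inl a)))).card +
      (univ.filter (fun b => P (some (.inr b)))).card := by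
  simp only [card_filter, Fintype.sum_option, Fintype.sum_sum_type, add_assoc]

variable {α : Type*} [Fintype α] [DecidableEq α]

theorem pbg_srg (hα : Fintype.card α = 22) {B : Set (Finset α)}
    (hB : IsSteinerSystem 3 6 B) [Fintype B] [DecidableRel (pointBlockGraph B).Adj] :
    (pointBlockGraph B).IsSRGWith 100 22 0 6 := by
  have hc : Fintype.card B = 77 := by
    rw [← card_blk_3_6_22 hα hB, card_blk, ← Nat.card_eq_fintype_card, Nat.card_coe_set_eq]
  have l1 : ∀ a : α, (univ.filter (fun b : B => a ∈ (b : Finset α))).card = 21 := fun a => by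
    rw [card_filter_blocks B (fun d => {a} ⊆ d) _ (fun d => by simp)]
    exact lam_eq hB hα 1 21 (by norm_num) (by norm_num) (by decide) _ (card_singleton a)
  have l2 : ∀ a a' : α, a ≠ a' →
      (univ.filter (fun b : B => a ∈ (b : Finset α) ∧ a' ∈ (b : Finset α))).card = 5 :=
    fun a a' h => by
    rw [card_filter_blocks B (fun d => {a, a'} ⊆ d) _ (fun d => by simp [insert_subset_iff])]
    exact lam_eq hB hα 2 5 (by norm_num) (by norm_num) (by decide) _ (card_pair h)
  have l3 : ∀ (a : α) (b : B), a ∉ (b : Finset α) → (univ.filter (fun d : B =>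
      a ∈ (d : Finset α) ∧ Disjoint (b : Finset α) d)).card = 6 := fun a b h => by
    rw [card_filter_blocks B (fun d => a ∈ d ∧ Disjoint (b : Finset α) d) _ (fun d => Iff.rfl)]
    exact card_mem_disjoint_3_6_22 hα hB b.2 h
  have l4 : ∀ b : B, (univ.filter (fun d : B => Disjoint (b : Finset α) d)).card = 16 :=
    fun b => by
    rw [card_filter_blocks B (fun d => Disjoint (b : Finset α) d) _ (fun d => Iff.rfl)]
    exact card_disjoint_3_6_22 hα hB b.2
  refine ⟨?_, ?_, ?_, ?_⟩
  · simp [hα, hc]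
  · intro v
    rw [degree_eq_filter, card_filter_option_sum]
    rcases v with _ | a | b
    · simp [pbg_nl, pbg_nr, hα]
    · simp [pbg_ln, pbg_ll, pbg_lr, l1]
    · simp [pbg_rn, pbg_rl, pbg_rr hB, l4, hB.1 _ b.2]
  · intro v w h
    rw [card_commonNeighbors_eq, card_eq_zero, filter_eq_empty_iff]
    rintro x - ⟨h1, h2⟩
    rcases v with _ | a | b <;> rcases w with _ | a' | b' <;> rcases x with _ | a'' | b'' <;>
      simp only [pbg_nn, pbg_nr, pbg_rn, pbg_ll, pbg_lr, pbg_rl, pbg_rr hB] at h h1 h2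
    · exact disjoint_left.1 h2 h h1
    · exact disjoint_left.1 h1 h h2
    · exact disjoint_left.1 h h1 h2
    · exact no_three_disjoint_3_6_22 hα hB b.2 b'.2 b''.2 h h1.symm h2.symm
  · intro v w hne h
    rw [card_commonNeighbors_eq, card_filter_option_sum]
    rcases v with _ | a | b <;> rcases w with _ | a' | b'
    · exact absurd rfl hne
    · exact absurd (pbg_nl _) h
    · simp [pbg_nl, pbg_nr, pbg_rl, hB.1 _ b'.2]
    · exact absurd (pbg_ln _) h
    · have : a ≠ a' := fun h => hne (by rw [h])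
      simp [pbg_ln, pbg_ll, pbg_lr, l2 a a' this]
    · rw [pbg_lr] at h
      simp [pbg_rn, pbg_ll, pbg_lr, pbg_rr hB, l3 a b' h]
    · simp [pbg_nl, pbg_nr, pbg_rl, hB.1 _ b.2]
    · rw [pbg_rl] at h
      have := l3 a' b h
      simp only [and_comm (a := a' ∈ _)] at this
      simp [pbg_rn, pbg_ll, pbg_lr, pbg_rr hB, this]
    · rw [pbg_rr hB, disjoint_iff_inter_eq_empty, ← card_eq_zero] at h
      have h1 := inter_3_6_22 hα hB b.2 b'.2 (fun h => hne (by rw [Subtype.ext h]))
      have h2 : ((b : Finset α) ∩ b').card = 2 := by omega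
      have h3 := card_disjoint_both_3_6_22 hα hB b.2 b'.2 h2
      rw [← card_filter_blocks B (fun d => Disjoint (b : Finset α) d ∧ Disjoint (b' : Finset α) d)
        _ (fun d => Iff.rfl)] at h3
      have h4 : univ.filter (fun a => a ∈ (b : Finset α) ∧ a ∈ (b' : Finset α)) =
          (b : Finset α) ∩ b' := by ext; simp
      simp [pbg_rn, pbg_rl, pbg_rr hB, h3, h4, h2]

end Cfsg.Agent.H16
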