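import Cfsg.Agent.H16.HSUnique
import Cfsg.Agent.H16.M22Aut
import Cfsg.Agent.S0410

/-! The automorphism group of the Higman-Sims graph. -/

set_option autoImplicit false

namespace Cfsg.Agent.H16

open Finset MulAction
open scoped Pointwise

theorem hs_pointed_iso {V W : Type*} [Fintype V] [Fintype W] {G : SimpleGraph V}
    {H : SimpleGraph W} [DecidableRel G.Adj] [DecidableRel H.Adj] (hG : G.IsSRGWith 100 22 0 6)
    (hH : H.IsSRGWith 100 22 0 6) (v : V) (w : W) : ∃ φ : G ≃g H, φ v = w := by
  classical
  obtain ⟨φ, h1⟩ := hs_local_iso hG v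
  obtain ⟨ψ, h2⟩ := hs_local_iso hH w
  obtain ⟨e, he⟩ := iff_of_setSystemIso (S0410.result (card_nbr_type hG v) (card_nbr_type hH w)
    (hs_steiner hG v) (hs_steiner hH w))
  refine ⟨(φ.trans (pbgIso e he)).trans ψ.symm, ?_⟩
  change ψ.symm (pbgIso e he (φ v)) = w
  rw [h1, pbgIso_none, ← h2]
  exact ψ.symm_apply_apply w

variable {α : Type*} [Fintype α] [DecidableEq α] {B : Set (Finset α)}

theorem pbg_transitive (hα : Fintype.card α = 22) (hB : IsSteinerSystem 3 6 B) :
    IsPretransitive (pointBlockGraph B ≃g pointBlockGraph B) (Option (α ⊕ B)) := by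
  classical
  exact ⟨fun v w => hs_pointed_iso (pbg_srg hα hB) (pbg_srg hα hB) v w⟩

theorem card_pbg_vertices (hα : Fintype.card α = 22) (hB : IsSteinerSystem 3 6 B) :
    Nat.card (Option (α ⊕ B)) = 100 := by
  classical
  rw [Nat.card_eq_fintype_card, (pbg_srg hα hB).card]

theorem card_pbg_aut (hα : Fintype.card α = 22) (hB : IsSteinerSystem 3 6 B) :
    Nat.card (pointBlockGraph B ≃g pointBlockGraph B) = 88704000 := by
  have := pbg_transitive hα hB
  rw [card_eq_of_transitive (none : Option (α ⊕ B)), card_pbg_vertices hα hB, ← pbgHom_range,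
    ← Nat.card_congr (MonoidHom.ofInjective (pbgHom_injective B)).toEquiv, card_aut22 hα hB]

theorem index_ker_sign {G : Type*} [Group G] (s : G →* ℤˣ) {g : G} (hg : s g = -1) :
    s.ker.index = 2 := by
  rw [Subgroup.index_ker]
  have : s.range = ⊤ := by
    rw [eq_top_iff]
    intro u _
    rcases Int.units_eq_one_or u with rfl | rfl
    · exact ⟨1, map_one s⟩
    · exact ⟨g, hg⟩
  rw [this, Subgroup.card_top, Nat.card_eq_fintype_card, Fintype.card_units_int]

theorem exists_HS (hα : Fintype.card α = 22) (hB : IsSteinerSystem 3 6 B) :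
    ∃ H : Subgroup (pointBlockGraph B ≃g pointBlockGraph B), H.index = 2 ∧ IsHS H ∧
      IsPreprimitive H (Option (α ⊕ B)) ∧ IsM22 (stabilizer H (none : Option (α ⊕ B))) := by
  classical
  let A := pointBlockGraph B ≃g pointBlockGraph B
  let V := Option (α ⊕ B)
  have hV : Nat.card V = 100 := card_pbg_vertices hα hB
  have hA : Nat.card A = 88704000 := card_pbg_aut hα hB
  have : Finite A := Nat.finite_of_card_ne_zero (by rw [hA]; norm_num)
  let s : A →* ℤˣ := Equiv.Perm.sign.comp (toPermHom A V)
  obtain ⟨σ, hσ, h1, h2, h3⟩ := exists_odd_involution22 hα hB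
  have hs : s (pbgHom B ⟨σ, hσ⟩) = -1 := by
    have hsq : (toPermHom A V (pbgHom B ⟨σ, hσ⟩)) ^ 2 = 1 := by
      rw [← map_pow, ← map_pow, pow_two, show (⟨σ, hσ⟩ * ⟨σ, hσ⟩ : setSystemAut B) = 1 from
        Subtype.ext h1, map_one, map_one]
    have hfix : Fintype.card (Function.fixedPoints (toPermHom A V (pbgHom B ⟨σ, hσ⟩))) = 6 := by
      rw [Fintype.card_subtype, card_filter_option_sum, if_pos (by rfl),
        card_filter_blocks B (fun b => b.map σ.toEmbedding = b), filter_eq_empty_iff.2]
      · rw [← Set.ncard_coe_finset (filter _ _), card_empty, show 6 = 1 + 0 + 5 from rfl, ← h3]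
        congr 2
        ext b; simp
      · intro a _ h
        exact h2 a (Sum.inl.inj (Option.some.inj h))
      · intro b
        exact ⟨fun h => congrArg Subtype.val (Sum.inr.inj (Option.some.inj h)),
          fun h => congrArg (fun x => some (Sum.inr x)) (Subtype.ext h)⟩
    change Equiv.Perm.sign (toPermHom A V (pbgHom B ⟨σ, hσ⟩)) = -1
    rw [Equiv.Perm.sign_of_pow_two_eq_one hsq, hfix, ← Nat.card_eq_fintype_card, hV]
    decide
  obtain ⟨M, hM1, ⟨hM2, hM3⟩, hM4⟩ := exists_M22_aut hα hB
  have hMK : M ≤ (s.comp (pbgHom B)).ker := by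
    rcases (((s.comp (pbgHom B)).normal_ker).subgroupOf M).eq_bot_or_eq_top with h | h
    · exfalso
      have h4 := Subgroup.relIndex_dvd_index_of_normal (s.comp (pbgHom B)).ker M
      rw [index_ker_sign _ (g := ⟨σ, hσ⟩) hs, Subgroup.relIndex, h, Subgroup.index_bot, hM3] at h4
      norm_num at h4
    · exact Subgroup.subgroupOf_eq_top.1 h
  have hMK' : M = (s.comp (pbgHom B)).ker := by
    apply Subgroup.eq_of_le_of_card_ge hMK
    have h4 := M.card_mul_index
    have h5 := (s.comp (pbgHom B)).ker.card_mul_index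
    rw [index_ker_sign _ (g := ⟨σ, hσ⟩) hs] at h5
    rw [hM1] at h4
    omega
  have hH := index_ker_sign s hs
  have hHc : Nat.card s.ker = 44352000 := by
    have := s.ker.card_mul_index
    rw [hH, hA] at this
    omega
  let ψ : M →* stabilizer s.ker (none : V) := MonoidHom.codRestrict
    (MonoidHom.codRestrict ((pbgHom B).comp M.subtype) s.ker (fun m => hMK m.2)) _ (fun m => rfl)
  have hψ : Function.Bijective ψ := by
    constructor
    · intro m m' h
      exact Subtype.ext (pbgHom_injective B (congrArg (fun x => x.1.1) h))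
    · rintro ⟨⟨g, hg⟩, hg'⟩
      obtain ⟨τ, rfl⟩ : g ∈ (pbgHom B).range := by rw [pbgHom_range]; exact hg'
      exact ⟨⟨τ, hMK' ▸ hg⟩, rfl⟩
  let e := MulEquiv.ofBijective ψ hψ
  have hsc : Nat.card (stabilizer s.ker (none : V)) = 443520 := by
    rw [← Nat.card_congr e.toEquiv, hM3]
  have hss : IsSimpleGroup (stabilizer s.ker (none : V)) := e.symm.isSimpleGroup
  have htr : IsPretransitive s.ker V := by
    rw [isPretransitive_iff_base (none : V)]
    have h4 := (stabilizer s.ker (none : V)).card_mul_index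
    rw [hsc, hHc, index_stabilizer] at h4
    have : orbit s.ker (none : V) = Set.univ := by
      rw [Set.eq_univ_iff_ncard, hV]; omega
    intro y
    exact (this ▸ Set.mem_univ y : y ∈ orbit s.ker (none : V))
  have hpt : ∀ a a' : α, ∃ g : stabilizer s.ker (none : V),
      g • (some (.inl a) : V) = some (.inl a') := fun a a' => by
    have := is_one_pretransitive_iff.1
      (@isMultiplyPretransitive_of_le _ _ _ _ 1 3 hM4 (by norm_num) (by simp [hα]) _)
    obtain ⟨m, hm⟩ := exists_smul_eq M a a'
    exact ⟨ψ m, congrArg (fun x => some (Sum.inl x)) hm⟩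
  have hbt : ∀ b b' : B, ∃ g : stabilizer s.ker (none : V),
      g • (some (.inr b) : V) = some (.inr b') := fun b b' => by
    obtain ⟨x⟩ : Nonempty (Fin 3 ↪ b.1) := nonempty_emb (by simp [hB.1 _ b.2])
    obtain ⟨y⟩ : Nonempty (Fin 3 ↪ b'.1) := nonempty_emb (by simp [hB.1 _ b'.2])
    obtain ⟨m, hm⟩ := exists_smul_eq M (x.trans (Function.Embedding.subtype _))
      (y.trans (Function.Embedding.subtype _))
    refine ⟨ψ m, congrArg (fun x => some (Sum.inr x)) (Subtype.ext ?_)⟩
    refine steiner_eq hB ((mem_setSystemAut_iff.1 m.1.2 _).2 b.2) b'.2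
      (s := univ.map (y.trans (Function.Embedding.subtype _))) (by simp) ?_ ?_
    · intro z hz
      obtain ⟨i, -, rfl⟩ := mem_map.1 hz
      exact mem_map.2 ⟨x i, (x i).2, DFunLike.congr_fun hm i⟩
    · intro z hz
      obtain ⟨i, -, rfl⟩ := mem_map.1 hz
      exact (y i).2
  have hprim : IsPreprimitive s.ker V := by
    refine IsPreprimitive.of_isTrivialBlock_base (none : V) fun {D} hD hblk => ?_
    have hmove : ∀ (g : stabilizer s.ker (none : V)) (v : V), v ∈ D → g • v ∈ D :=
      fun g v hv => by
      have : (g : s.ker) • D = D := hblk.stabilizer_le hD g.2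
      rw [← this]
      exact Set.smul_mem_smul_set hv
    by_cases hb : ∃ b : B, (some (.inr b) : V) ∈ D
    · right
      obtain ⟨b, hb⟩ := hb
      apply hblk.eq_univ_of_card_lt
      have hsub : Set.range (fun b : B => (some (.inr b) : V)) ⊆ D := by
        rintro _ ⟨b', rfl⟩
        obtain ⟨g, hg⟩ := hbt b b'
        have := hmove g _ hb
        rwa [hg] at this
      have := Set.ncard_le_ncard hsub
      rw [Set.ncard_range_of_injective (fun _ _ h => Sum.inr.inj (Option.some.inj h)),
        Nat.card_coe_set_eq, ← card_blk, card_blk_3_6_22 hα hB] at this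
      omega
    by_cases ha : ∃ a : α, (some (.inl a) : V) ∈ D
    · exfalso
      obtain ⟨a, ha⟩ := ha
      have hD' : D = insert none (Set.range (fun a : α => (some (.inl a) : V))) := by
        ext (_ | a' | b')
        · simp [hD]
        · obtain ⟨g, hg⟩ := hpt a a'
          simpa using hg ▸ hmove g _ ha
        · refine iff_of_false (fun h => hb ⟨b', h⟩) ?_
          rintro (h | ⟨a, h⟩) <;> cases h
      have := hblk.ncard_dvd_card ⟨_, hD⟩
      rw [hD', Set.ncard_insert_of_notMem (by simp),
        Set.ncard_range_of_injective (fun _ _ h => Sum.inl.inj (Option.some.inj h)), hV,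
        Nat.card_eq_fintype_card, hα] at this
      norm_num at this
    · left
      have : ∀ v ∈ D, v = none := by
        rintro (_ | a | b) hv
        · rfl
        · exact absurd ⟨a, hv⟩ ha
        · exact absurd ⟨b, hv⟩ hb
      intro v hv w hw
      rw [this v hv, this w hw]
  refine ⟨s.ker, hH, ⟨simple_of_stabilizer_simple (none : V) (not_regular_of_normal_sylow (p := 5)
    (by norm_num) (by rw [hV]; norm_num) ?_ ?_ none), hHc⟩, hprim, hss, hsc⟩
  · intro d hd h
    rw [hV] at hd
    have := Nat.le_of_dvd (by norm_num) hd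
    interval_cases d <;> omega
  · intro k h
    rw [hV] at h
    have : 2 ∣ 5 ^ k := h ▸ (by norm_num)
    have := Nat.Prime.dvd_of_dvd_pow Nat.prime_two this
    omega

end Cfsg.Agent.H16
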