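import Cfsg.Agent.H16.SRG
import Cfsg.Agent.H16.HSGraph
import Cfsg.Agent.H16.SSearch2

/-! A strongly regular graph with parameters (100,22,0,6) is the point-block graph of an
S(3,6,22). -/

set_option autoImplicit false

namespace Cfsg.Agent.H16

open Finset

section
variable {V : Type*} [Fintype V] [DecidableEq V] {G : SimpleGraph V} [DecidableRel G.Adj]

/-- the neighbours of `w` among the neighbours of `v` -/
def locBlock (G : SimpleGraph V) [DecidableRel G.Adj] (v w : V) : Finset {a // G.Adj v a} :=
  univ.filter fun a => G.Adj w a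

omit [DecidableEq V] in
theorem mem_locBlock {v w : V} {a : {a // G.Adj v a}} : a ∈ locBlock G v w ↔ G.Adj w a := by
  simp [locBlock]

theorem card_locBlock_inter (v w x : V) : (locBlock G v x ∩ locBlock G v w).card =
    (G.neighborFinset x ∩ (G.neighborFinset v ∩ G.neighborFinset w)).card := by
  rw [← card_map (Function.Embedding.subtype _)]
  congr 1
  ext a
  simp only [mem_map, mem_inter, mem_locBlock, Function.Embedding.coe_subtype,
    SimpleGraph.mem_neighborFinset]
  exact ⟨by rintro ⟨a, h, rfl⟩; exact ⟨h.1, a.2, h.2⟩, fun h => ⟨⟨a, h.2.1⟩, ⟨h.1, h.2.2⟩, rfl⟩⟩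

theorem hs_inter (h : G.IsSRGWith 100 22 0 6) {v w x : V} (hw : w ∈ far G v) (hx : x ∈ far G v)
    (hne : x ≠ w) : (locBlock G v x ∩ locBlock G v w).card = if G.Adj x w then 0 else 2 := by
  split_ifs with ha
  · rw [card_eq_zero, eq_empty_iff_forall_notMem]
    intro a ha'
    simp only [mem_inter, mem_locBlock] at ha'
    exact srg_no_triangle h ha ha'.1 ha'.2
  · obtain ⟨h1, h2, h3⟩ := srg_moments h hw
    have hc : (far G v ∩ far G w).card = 60 := by omega
    rw [card_locBlock_inter]
    exact const_of_moments _ _ 2 (by rw [h2, hc]) (by rw [h3, hc]; rfl) x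
      (mem_inter.2 ⟨hx, mem_far.2 ⟨hne, fun h' => ha h'.symm⟩⟩)

theorem card_locBlock {n k l m : ℕ} (h : G.IsSRGWith n k l m) {v w : V} (hw : w ∈ far G v) :
    (locBlock G v w).card = m := by
  have := card_locBlock_inter (G := G) v w w
  rw [inter_self, inter_comm (G.neighborFinset v), ← inter_assoc, inter_self] at this
  rw [this, srg_mu h (mem_far.1 hw).1 fun h' => (mem_far.1 hw).2 h'.symm]

omit [DecidableEq V] in
theorem card_nbr_type {n k l m : ℕ} (h : G.IsSRGWith n k l m) (v : V) :
    Fintype.card {a // G.Adj v a} = k := by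
  rw [Fintype.card_subtype, ← degree_eq_filter, h.regular.degree_eq v]

theorem hs_steiner (h : G.IsSRGWith 100 22 0 6) (v : V) :
    IsSteinerSystem 3 6 (locBlock G v '' far G v) :=
  steiner_of_family (card_nbr_type h v) _ (by have := card_far h v; omega) _
    (fun x hx => card_locBlock h hx) (fun x hx y hy hxy => by
      rw [hs_inter h hy hx hxy]; split_ifs <;> norm_num)

theorem hs_local_iso (h : G.IsSRGWith 100 22 0 6) (v : V) :
    ∃ φ : G ≃g pointBlockGraph (locBlock G v '' far G v), φ v = none := by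
  let B := locBlock G v '' far G v
  have hB := hs_steiner h v
  let f : V → Option ({a // G.Adj v a} ⊕ B) := fun x =>
    if h1 : x = v then none else if h2 : G.Adj v x then some (.inl ⟨x, h2⟩) else
      some (.inr ⟨locBlock G v x, x, mem_far.2 ⟨h1, h2⟩, rfl⟩)
  have f1 : f v = none := by simp [f]
  have f2 : ∀ x (hx : G.Adj v x), f x = some (.inl ⟨x, hx⟩) := fun x hx => by
    simp [f, hx, hx.ne.symm]
  have f3 : ∀ x (hx : x ∈ far G v), f x = some (.inr ⟨locBlock G v x, x, hx, rfl⟩) :=
    fun x hx => by simp [f, (mem_far.1 hx).1, (mem_far.1 hx).2]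
  have tri : ∀ x, x = v ∨ G.Adj v x ∨ x ∈ far G v := fun x => by rw [mem_far]; tauto
  have hadj : ∀ x y, (pointBlockGraph B).Adj (f x) (f y) ↔ G.Adj x y := by
    intro x y
    rcases tri x with rfl | hx | hx <;> rcases tri y with rfl | hy | hy
    · simp
    · rw [f1, f2 y hy]; simp [pbg_nl, hy]
    · rw [f1, f3 y hy]; simp [pbg_nr, (mem_far.1 hy).2]
    · rw [f1, f2 x hx]; simp [pbg_ln, hx.symm]
    · rw [f2 x hx, f2 y hy]
      exact iff_of_false (pbg_ll _ _) (srg_no_triangle h hx hy)
    · rw [f2 x hx, f3 y hy, pbg_lr, mem_locBlock, G.adj_comm]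
    · rw [f1, f3 x hx]
      exact iff_of_false (pbg_rn _) fun h' => (mem_far.1 hx).2 h'.symm
    · rw [f3 x hx, f2 y hy, pbg_rl, mem_locBlock]
    · rw [f3 x hx, f3 y hy, pbg_rr hB, disjoint_iff_inter_eq_empty, ← card_eq_zero]
      by_cases hxy : x = y
      · subst hxy
        simp [card_locBlock h hx]
      · rw [hs_inter h hy hx hxy]
        split_ifs with h' <;> simp [h']
  have hinj : Function.Injective f := by
    intro x y hxy
    by_contra hne
    have h1 : G.neighborFinset x = G.neighborFinset y := by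
      ext z
      rw [SimpleGraph.mem_neighborFinset, SimpleGraph.mem_neighborFinset, ← hadj, ← hadj, hxy]
    have h2 : ¬ G.Adj x y := by rw [← hadj, hxy]; exact (pointBlockGraph B).irrefl
    have := srg_mu h hne h2
    rw [h1, inter_self, srg_deg h] at this
    omega
  have hsurj : Function.Surjective f := by
    rintro (_ | a | ⟨_, x, hx, rfl⟩)
    · exact ⟨v, f1⟩
    · exact ⟨a, f2 a a.2⟩
    · exact ⟨x, f3 x hx⟩
  exact ⟨⟨Equiv.ofBijective f ⟨hinj, hsurj⟩, hadj _ _⟩, f1⟩

end

/-- bijection of blocks induced by an isomorphism of set systems -/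
def blockEquiv {α β : Type*} {B : Set (Finset α)} {B' : Set (Finset β)} (e : α ≃ β)
    (he : ∀ b, b.map e.toEmbedding ∈ B' ↔ b ∈ B) : B ≃ B' where
  toFun b := ⟨b.1.map e.toEmbedding, (he _).2 b.2⟩
  invFun b := ⟨b.1.map e.symm.toEmbedding, (he _).1 (by rw [map_symm_map]; exact b.2)⟩
  left_inv b := Subtype.ext (map_map_symm e b.1)
  right_inv b := Subtype.ext (map_symm_map e b.1)

/-- isomorphism of point-block graphs induced by an isomorphism of set systems -/
def pbgIso {α β : Type*} {B : Set (Finset α)} {B' : Set (Finset β)} (e : α ≃ β)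
    (he : ∀ b, b.map e.toEmbedding ∈ B' ↔ b ∈ B) : pointBlockGraph B ≃g pointBlockGraph B' where
  toEquiv := Equiv.optionCongr (Equiv.sumCongr e (blockEquiv e he))
  map_rel_iff' := by
    have key : ∀ v w, pointBlockRel B' (Equiv.optionCongr (Equiv.sumCongr e (blockEquiv e he)) v)
        (Equiv.optionCongr (Equiv.sumCongr e (blockEquiv e he)) w) ↔ pointBlockRel B v w := by
      rintro (_ | a | b) (_ | a' | b')
      all_goals first
        | exact Iff.rfl
        | exact mem_map' _
        | exact disjoint_map _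
    intro v w
    rw [pbg_adj, pbg_adj, key, key, (Equiv.injective _).ne_iff]

/-- isomorphism of block graphs induced by an isomorphism of set systems -/
def bgIso {α β : Type*} {B : Set (Finset α)} {B' : Set (Finset β)} (e : α ≃ β)
    (he : ∀ b, b.map e.toEmbedding ∈ B' ↔ b ∈ B) : blockGraph B ≃g blockGraph B' where
  toEquiv := blockEquiv e he
  map_rel_iff' := by
    intro b c
    have h1 : ∀ {α : Type _} {B : Set (Finset α)} (b c : B), (blockGraph B).Adj b c ↔
        b ≠ c ∧ (Disjoint (b : Finset α) c ∨ Disjoint (c : Finset α) b) :=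
      fun b c => SimpleGraph.fromRel_adj _ _ _
    have h2 : ∀ {α : Type _} {B : Set (Finset α)} (b c : B), (blockGraph B).Adj b c ↔
        b ≠ c ∧ (Disjoint (b : Finset α) c ∨ Disjoint (c : Finset α) b) :=
      fun b c => SimpleGraph.fromRel_adj _ _ _
    rw [h1, h2, (Equiv.injective _).ne_iff]
    exact and_congr Iff.rfl (or_congr (disjoint_map _) (disjoint_map _))

theorem pbgIso_none {α β : Type*} {B : Set (Finset α)} {B' : Set (Finset β)} (e : α ≃ β)
    (he : ∀ b, b.map e.toEmbedding ∈ B' ↔ b ∈ B) : pbgIso e he none = none := rfl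

theorem pbgIso_inl {α β : Type*} {B : Set (Finset α)} {B' : Set (Finset β)} (e : α ≃ β)
    (he : ∀ b, b.map e.toEmbedding ∈ B' ↔ b ∈ B) (a : α) :
    pbgIso e he (some (.inl a)) = some (.inl (e a)) := rfl

theorem pbgIso_inr {α β : Type*} {B : Set (Finset α)} {B' : Set (Finset β)} (e : α ≃ β)
    (he : ∀ b, b.map e.toEmbedding ∈ B' ↔ b ∈ B) (b : B) :
    pbgIso e he (some (.inr b)) = some (.inr ⟨b.1.map e.toEmbedding, (he _).2 b.2⟩) := rfl

/-- the automorphisms of the point-block graph induced by automorphisms of the set system -/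
def pbgHom {α : Type*} [DecidableEq α] (B : Set (Finset α)) :
    setSystemAut B →* (pointBlockGraph B ≃g pointBlockGraph B) :=
  MonoidHom.mk' (fun σ => pbgIso σ.1 (mem_setSystemAut_iff.1 σ.2)) (fun σ τ => by
    ext (_ | a | b)
    · rfl
    · rfl
    · exact congrArg (fun x => _ ∈ some (Sum.inr x)) (Subtype.ext (map_map_equiv _ _ _).symm)
        |>.to_iff)

theorem pbgHom_apply {α : Type*} [DecidableEq α] (B : Set (Finset α)) (σ : setSystemAut B) :
    pbgHom B σ = pbgIso σ.1 (mem_setSystemAut_iff.1 σ.2) := rfl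

theorem pbgHom_injective {α : Type*} [DecidableEq α] (B : Set (Finset α)) :
    Function.Injective (pbgHom B) := fun σ τ h => by
  apply Subtype.ext
  ext a
  have := DFunLike.congr_fun h (some (.inl a))
  simpa [pbgHom_apply, pbgIso_inl] using this

theorem pbgHom_range {α : Type*} [Fintype α] [DecidableEq α] (B : Set (Finset α)) :
    (pbgHom B).range = 
      MulAction.stabilizer (pointBlockGraph B ≃g pointBlockGraph B) (none : Option (α ⊕ B)) := by
  apply le_antisymm
  · rintro _ ⟨σ, rfl⟩
    rfl
  intro φ hφ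
  have h0 : φ none = none := hφ
  have h1 : ∀ a, ∃ a', φ (some (.inl a)) = some (.inl a') := fun a => by
    have := φ.map_rel_iff.2 (pbg_nl (B := B) a)
    rw [h0] at this
    rcases hx : φ (some (.inl a)) with _ | a' | b
    · rw [hx] at this; exact absurd this pbg_nn
    · exact ⟨a', rfl⟩
    · rw [hx] at this; exact absurd this (pbg_nr b)
  have h2 : ∀ b, ∃ b', φ (some (.inr b)) = some (.inr b') := fun b => by
    rcases hx : φ (some (.inr b)) with _ | a' | b'
    · rw [← h0] at hx; simpa using φ.injective hx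
    · have := pbg_nl (B := B) a'
      rw [← h0, ← hx, φ.map_rel_iff] at this
      exact absurd this (pbg_nr b)
    · exact ⟨b', rfl⟩
  choose s hs using h1
  have hsi : Function.Injective s := fun a a' h => by
    have : φ (some (.inl a)) = φ (some (.inl a')) := by rw [hs, hs, h]
    simpa using φ.injective this
  let σ : Equiv.Perm α := Equiv.ofBijective s (Finite.injective_iff_bijective.1 hsi)
  have h3 : ∀ b b' : B, φ (some (.inr b)) = some (.inr b') →
      (b : Finset α).map σ.toEmbedding = b' := fun b b' h => by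
    ext x
    obtain ⟨a, rfl⟩ := σ.surjective x
    rw [← pbg_lr, ← h, show some (Sum.inl (σ a)) = φ (some (.inl a)) from (hs a).symm,
      φ.map_rel_iff, pbg_lr]
    exact mem_map' _
  have hσ : σ ∈ setSystemAut B := mem_setSystemAut_of_forall fun b hb => by
    obtain ⟨b', hb'⟩ := h2 ⟨b, hb⟩
    rw [h3 _ _ hb']; exact b'.2
  refine ⟨⟨σ, hσ⟩, RelIso.ext ?_⟩
  rintro (_ | a | b)
  · exact h0.symm
  · exact (hs a).symm
  · obtain ⟨b', hb'⟩ := h2 b
    rw [hb', pbgHom_apply, pbgIso_inr]
    exact congrArg (fun x => some (Sum.inr x)) (Subtype.ext (h3 _ _ hb'))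

end Cfsg.Agent.H16
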