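import Cfsg.Agent.H16.S22

/-! Finset form of the axioms of a triangle-free strongly regular graph, double counting. -/

set_option autoImplicit false

namespace Cfsg.Agent.H16

open Finset

theorem sum_choose_inter' {ι α : Type*} [DecidableEq α] (I : Finset ι) (F : ι → Finset α)
    (W : Finset α) (i : ℕ) : ∑ x ∈ I, Nat.choose (F x ∩ W).card i =
      ∑ u ∈ W.powersetCard i, (I.filter (fun x => u ⊆ F x)).card := by
  have h := Finset.sum_card_bipartiteAbove_eq_sum_card_bipartiteBelow
    (s := I) (t := W.powersetCard i) (fun x u => u ⊆ F x)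
  convert h using 1
  · refine sum_congr rfl fun b _ => ?_
    rw [← card_powersetCard]
    congr 1
    ext u
    simp only [mem_bipartiteAbove, mem_powersetCard, subset_inter_iff]
    tauto
  · rfl

theorem sum_card_inter' {ι α : Type*} [DecidableEq α] (I : Finset ι) (F : ι → Finset α)
    (W : Finset α) (l : ℕ) (h : ∀ a ∈ W, (I.filter (fun x => a ∈ F x)).card = l) :
    ∑ x ∈ I, (F x ∩ W).card = W.card * l := by
  have := sum_choose_inter' I F W 1
  simp only [Nat.choose_one_right] at this
  rw [this, sum_congr rfl (g := fun _ => l), sum_const, card_powersetCard, Nat.choose_one_right,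
    smul_eq_mul]
  intro u hu
  obtain ⟨a, rfl⟩ := card_eq_one.1 (mem_powersetCard.1 hu).2
  simp only [singleton_subset_iff]
  exact h a (singleton_subset_iff.1 (mem_powersetCard.1 hu).1)

theorem sum_choose_two_inter' {ι α : Type*} [DecidableEq α] (I : Finset ι) (F : ι → Finset α)
    (W : Finset α) (l : ℕ)
    (h : ∀ a ∈ W, ∀ b ∈ W, a ≠ b → (I.filter (fun x => a ∈ F x ∧ b ∈ F x)).card = l) :
    ∑ x ∈ I, (F x ∩ W).card.choose 2 = W.card.choose 2 * l := by
  rw [sum_choose_inter', sum_congr rfl (g := fun _ => l), sum_const, card_powersetCard,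
    smul_eq_mul]
  intro u hu
  obtain ⟨a, b, hab, rfl⟩ := card_eq_two.1 (mem_powersetCard.1 hu).2
  have := (mem_powersetCard.1 hu).1
  simp only [insert_subset_iff, singleton_subset_iff] at this ⊢
  exact h a this.1 b this.2 hab

/-- If the first two moments of `x` are those of the constant `c`, then `x` is constant. -/
theorem const_of_moments {ι : Type*} (I : Finset ι) (x : ι → ℕ) (c : ℕ)
    (h1 : ∑ i ∈ I, x i = I.card * c) (h2 : ∑ i ∈ I, (x i).choose 2 = I.card * c.choose 2) :
    ∀ i ∈ I, x i = c := by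
  have e : ∀ n : ℕ, ((n.choose 2 : ℕ) : ℤ) * 2 = n * n - n := fun n => by
    induction n with
    | zero => simp
    | succ n ih => rw [Nat.choose_succ_succ', Nat.choose_one_right]; push_cast; linarith
  have h1' : ∑ i ∈ I, (x i : ℤ) = I.card * c := by exact_mod_cast h1
  have h2' : ∑ i ∈ I, ((x i).choose 2 : ℤ) = I.card * (c.choose 2 : ℕ) := by exact_mod_cast h2
  have h3 : ∑ i ∈ I, ((x i : ℤ) - c) ^ 2 = 0 := by
    have : ∀ i, ((x i : ℤ) - c) ^ 2 = 2 * ((x i).choose 2 : ℤ) + (1 - 2 * c) * x i + c * c :=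
      fun i => by linear_combination - e (x i)
    simp only [this, sum_add_distrib, ← mul_sum, h1', h2', sum_const, nsmul_eq_mul]
    linear_combination (I.card : ℤ) * e c
  intro i hi
  have := (sum_eq_zero_iff_of_nonneg (fun i _ => sq_nonneg _)).1 h3 i hi
  have := pow_eq_zero_iff (two_ne_zero) |>.1 this
  omega

variable {V : Type*} [Fintype V] [DecidableEq V] {G : SimpleGraph V} [DecidableRel G.Adj]
  {n k l m : ℕ}

omit [DecidableEq V] in
theorem srg_deg (h : G.IsSRGWith n k l m) (x : V) : (G.neighborFinset x).card = k :=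
  h.regular.degree_eq x

theorem srg_inter (x y : V) :
    Fintype.card (G.commonNeighbors x y) = (G.neighborFinset x ∩ G.neighborFinset y).card := by
  rw [card_commonNeighbors_eq]
  congr 1
  ext; simp

theorem srg_mu (h : G.IsSRGWith n k l m) {x y : V} (hxy : x ≠ y) (ha : ¬ G.Adj x y) :
    (G.neighborFinset x ∩ G.neighborFinset y).card = m := by
  rw [← srg_inter]; convert h.of_not_adj hxy ha

theorem srg_lam (h : G.IsSRGWith n k l m) {x y : V} (ha : G.Adj x y) :
    (G.neighborFinset x ∩ G.neighborFinset y).card = l := by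
  rw [← srg_inter]; convert h.of_adj x y ha

theorem srg_no_triangle (h : G.IsSRGWith n k 0 m) {x y z : V} (h1 : G.Adj x y) (h2 : G.Adj x z)
    (h3 : G.Adj y z) : False := by
  have := card_eq_zero.1 (srg_lam h h1)
  have h4 : z ∈ G.neighborFinset x ∩ G.neighborFinset y := by simp [h2, h3]
  rw [this] at h4
  exact notMem_empty _ h4

/-- the vertices at distance two from `v` -/
def far (G : SimpleGraph V) [DecidableRel G.Adj] (v : V) : Finset V :=
  univ.filter fun w => w ≠ v ∧ ¬ G.Adj v w

theorem mem_far {v w : V} : w ∈ far G v ↔ w ≠ v ∧ ¬ G.Adj v w := by simp [far]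

theorem card_far (h : G.IsSRGWith n k l m) (v : V) : (far G v).card + k + 1 = n := by
  have : far G v = univ \ insert v (G.neighborFinset v) := by
    ext; simp [mem_far]
  rw [this, card_sdiff_of_subset (subset_univ _), card_insert_of_notMem (by simp), srg_deg h,
    card_univ, h.card]
  have := card_le_univ (insert v (G.neighborFinset v))
  rw [card_insert_of_notMem (by simp), srg_deg h, h.card] at this
  omega

theorem card_far_nbr (h : G.IsSRGWith n k l m) {v w : V} (hw : w ∈ far G v) :
    (far G v ∩ G.neighborFinset w).card + m = k := by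
  rw [mem_far] at hw
  rw [← srg_mu h hw.1.symm hw.2, ← srg_deg h w, ← card_union_of_disjoint]
  · congr 1
    ext x
    simp only [mem_union, mem_inter, mem_far, SimpleGraph.mem_neighborFinset]
    constructor
    · tauto
    · intro hx
      by_cases h' : G.Adj v x
      · exact Or.inr ⟨h', hx⟩
      · exact Or.inl ⟨⟨fun e => hw.2 (e ▸ hx.symm), h'⟩, hx⟩
  · rw [disjoint_left]
    intro x h1 h2
    simp only [mem_inter, mem_far, SimpleGraph.mem_neighborFinset] at h1 h2
    exact h1.1.2 h2.1

/-- first and second moments of the number of common neighbours of `v, w, w'` -/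
theorem srg_moments (h : G.IsSRGWith n k 0 m) {v w : V} (hw : w ∈ far G v) :
    (far G v ∩ far G w).card + 2 * k + 2 = n + m ∧
    ∑ x ∈ far G v ∩ far G w, (G.neighborFinset x ∩
      (G.neighborFinset v ∩ G.neighborFinset w)).card = m * (k - 2) ∧
    ∑ x ∈ far G v ∩ far G w, (G.neighborFinset x ∩
      (G.neighborFinset v ∩ G.neighborFinset w)).card.choose 2 = m.choose 2 * (m - 2) := by
  have hw' := mem_far.1 hw
  have hm := srg_mu h hw'.1.symm hw'.2
  refine ⟨?_, ?_, ?_⟩
  · have h1 := card_far h v
    have h2 := card_far_nbr h hw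
    have h3 : far G v = insert w ((far G v ∩ far G w) ∪ (far G v ∩ G.neighborFinset w)) := by
      ext x
      simp only [mem_insert, mem_union, mem_inter, mem_far, SimpleGraph.mem_neighborFinset]
      constructor
      · tauto
      · rintro (rfl | h | h)
        · exact hw'
        · exact h.1
        · exact h.1
    have h4 := congrArg card h3
    rw [card_insert_of_notMem (by simp [mem_far]), card_union_of_disjoint (by
      rw [disjoint_left]
      intro x h1 h2
      simp only [mem_inter, mem_far, SimpleGraph.mem_neighborFinset] at h1 h2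
      exact h1.2.2 h2.2)] at h4
    omega
  · rw [sum_card_inter' _ _ _ (k - 2), hm]
    intro a ha
    simp only [mem_inter, SimpleGraph.mem_neighborFinset] at ha
    rw [← srg_deg h a, ← card_pair hw'.1.symm, ← card_sdiff_of_subset (by
      simp [insert_subset_iff, ha.1.symm, ha.2.symm])]
    congr 1
    ext x
    simp only [mem_filter, mem_inter, mem_far, SimpleGraph.mem_neighborFinset, mem_sdiff,
      mem_insert, mem_singleton, not_or]
    constructor
    · rintro ⟨⟨h1, h2⟩, h3⟩
      exact ⟨h3.symm, h1.1, h2.1⟩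
    · rintro ⟨h1, h2, h3⟩
      exact ⟨⟨⟨h2, fun h' => srg_no_triangle h ha.1 h' h1⟩,
        ⟨h3, fun h' => srg_no_triangle h ha.2 h' h1⟩⟩, h1.symm⟩
  · rw [sum_choose_two_inter' _ _ _ (m - 2), hm]
    intro a ha b hb hab
    simp only [mem_inter, SimpleGraph.mem_neighborFinset] at ha hb
    rw [← srg_mu h hab (fun h' => srg_no_triangle h ha.1 hb.1 h'), ← card_pair hw'.1.symm,
      ← card_sdiff_of_subset (by
        simp [insert_subset_iff, ha.1.symm, ha.2.symm, hb.1.symm, hb.2.symm])]
    congr 1
    ext x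
    simp only [mem_filter, mem_inter, mem_far, SimpleGraph.mem_neighborFinset, mem_sdiff,
      mem_insert, mem_singleton, not_or]
    constructor
    · rintro ⟨⟨h1, h2⟩, h3, h4⟩
      exact ⟨⟨h3.symm, h4.symm⟩, h1.1, h2.1⟩
    · rintro ⟨⟨h1, h4⟩, h2, h3⟩
      exact ⟨⟨⟨h2, fun h' => srg_no_triangle h ha.1 h' h1⟩,
        ⟨h3, fun h' => srg_no_triangle h ha.2 h' h1⟩⟩, h1.symm, h4.symm⟩

/-- A family of 77 six-sets on 22 points meeting pairwise in at most two points is an
S(3,6,22). -/
theorem steiner_of_family {ι α : Type*} [Fintype α] [DecidableEq α] (hα : Fintype.card α = 22)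
    (I : Finset ι) (hI : I.card = 77) (F : ι → Finset α) (h6 : ∀ x ∈ I, (F x).card = 6)
    (h2 : ∀ x ∈ I, ∀ y ∈ I, x ≠ y → (F x ∩ F y).card ≤ 2) :
    IsSteinerSystem 3 6 (F '' I) := by
  classical
  have hle : ∀ u ∈ (univ : Finset α).powersetCard 3, (I.filter (fun x => u ⊆ F x)).card ≤ 1 := by
    intro u hu
    rw [card_le_one]
    intro x hx y hy
    rw [mem_filter] at hx hy
    by_contra hne
    have := card_le_card (subset_inter hx.2 hy.2)
    have := h2 x hx.1 y hy.1 hne
    have := (mem_powersetCard.1 hu).2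
    omega
  have hs := sum_choose_inter' I F univ 3
  rw [sum_congr rfl (g := fun _ => 20) (fun x hx => by rw [inter_univ, h6 x hx]; rfl), sum_const,
    hI] at hs
  have hs' : ∑ u ∈ (univ : Finset α).powersetCard 3, (I.filter (fun x => u ⊆ F x)).card =
      ∑ u ∈ (univ : Finset α).powersetCard 3, 1 := by
    rw [← hs, sum_const, card_powersetCard, card_univ, hα]; rfl
  have := (sum_eq_sum_iff_of_le hle).1 hs'
  refine ⟨by rintro _ ⟨x, hx, rfl⟩; exact h6 x hx, fun s hs => ?_⟩
  obtain ⟨x, hx⟩ := card_eq_one.1 (this s (mem_powersetCard.2 ⟨subset_univ _, hs⟩))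
  have hx' : x ∈ I.filter (fun x => s ⊆ F x) := hx ▸ mem_singleton_self x
  rw [mem_filter] at hx'
  refine ⟨F x, ⟨⟨x, hx'.1, rfl⟩, hx'.2⟩, ?_⟩
  rintro _ ⟨⟨y, hy, rfl⟩, hy'⟩
  have : y ∈ I.filter (fun x => s ⊆ F x) := mem_filter.2 ⟨hy, hy'⟩
  rw [hx, mem_singleton] at this
  rw [this]

end Cfsg.Agent.H16
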